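import Cfsg.Agent.Lib.PSL2.DClassify
import Cfsg.Agent.Lib.PSL2.Unipotent
import Cfsg.Agent.Lib.PSL2.Conj

/-!
# Finite subgroups of odd order of `SL(2, F)`, `F` any field of odd characteristic `p`

A finite subgroup of odd order has a normal Sylow `p`-subgroup.  The proof gives the partition
structure `DPart.Dp` of the Dickson counting argument.
-/

set_option autoImplicit false
set_option linter.unusedSectionVars false

namespace Cfsg.Agent.Lib.PSL2.DOdd

open Matrix Matrix.SpecialLinearGroup Subgroup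
open scoped MatrixGroups
open Cfsg.Agent.Lib.PSL2.Basic Cfsg.Agent.Lib.PSL2.Conj Cfsg.Agent.Lib.PSL2.Unipotent
open Cfsg.Agent.Lib.PSL2.DPart Cfsg.Agent.Lib.PSL2.DClassify

section Trace

variable {F : Type*} [Field F]

/-- An element commuting with `A`, of the same trace, where the discriminant of `A` does not vanish:
it is `A` or its inverse. -/
theorem eq_or_eq_inv_of_commute_of_tr_eq (h2 : (2 : F) ≠ 0) {A B : SL(2, F)} (ht : tr A ^ 2 ≠ 4)
    (hAB : A * B = B * A) (htr : tr B = tr A) : B = A ∨ B = A⁻¹ := by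
  have hne : A ≠ 1 ∧ A ≠ -1 := by
    constructor
    · rintro rfl
      apply ht
      rw [tr_one]; norm_num
    · rintro rfl
      apply ht
      rw [tr_neg, tr_one]; norm_num
  obtain ⟨α, β, hB⟩ := exists_eq_of_commute hne hAB
  have h00 : B.1 0 0 = α + β * A.1 0 0 := by
    rw [hB]; simp
  have h01 : B.1 0 1 = β * A.1 0 1 := by
    rw [hB]; simp
  have h10 : B.1 1 0 = β * A.1 1 0 := by
    rw [hB]; simp
  have h11 : B.1 1 1 = α + β * A.1 1 1 := by
    rw [hB]; simp
  have hdA := det_entries A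
  have hdB := det_entries B
  rw [h00, h01, h10, h11] at hdB
  rw [tr_def, tr_def, h00, h11] at htr
  have hk : (tr A ^ 2 - 4) * (1 - β ^ 2) = 0 := by
    rw [tr_def]
    have h1 : 2 * α = (A.1 0 0 + A.1 1 1) * (1 - β) := by linear_combination htr
    have h3 : α ^ 2 + α * β * (A.1 0 0 + A.1 1 1) + β ^ 2 = 1 := by
      linear_combination hdB + (-β^2) * hdA
    have h4 : (2 * α) ^ 2 + (2 * α) * (2 * β) * (A.1 0 0 + A.1 1 1) + 4 * β ^ 2 = 4 := by
      linear_combination 4 * h3
    rw [h1] at h4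
    linear_combination h4
  have hβ : (1 - β) * (1 + β) = 0 := by
    have := (mul_eq_zero.1 hk).resolve_left (sub_ne_zero.2 ht)
    linear_combination this
  rcases mul_eq_zero.1 hβ with h | h
  · left
    have hb1 : β = 1 := by linear_combination -h
    have ha0 : α = 0 := by
      have : 2 * α = 0 := by rw [hb1] at htr; linear_combination htr
      exact (mul_eq_zero.1 this).resolve_left h2
    apply Subtype.ext
    rw [hB, hb1, ha0]
    simp
  · right
    have hb1 : β = -1 := by linear_combination h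
    have ha0 : α = tr A := by
      have : 2 * (α - tr A) = 0 := by
        rw [hb1] at htr
        rw [tr_def]
        linear_combination htr
      have := (mul_eq_zero.1 this).resolve_left h2
      linear_combination this
    apply Subtype.ext
    rw [hB, hb1, ha0, ← add_inv_eq A]
    simp

/-- Conjugating `x t` by an upper triangular element. -/
lemma conj_x_of_upper {g : SL(2, F)} (hg : g.1 1 0 = 0) (t : F) :
    g * x t * g⁻¹ = x (g.1 0 0 * t * g.1 0 0) := by
  have hdet := det_entries g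
  rw [hg] at hdet
  apply ext2
  · simp [hg]
    linear_combination hdet
  · simp [hg]
    ring
  · simp [hg]
  · simp [hg]
    linear_combination hdet

end Trace

section Main

variable {F : Type*} [Field F] {p : ℕ} [hp : Fact p.Prime] [CharP F p]
variable {L : Type*} [Group L] [Finite L]

/-- The situation: an injective homomorphism of a finite group of odd order to `SL(2, F)`,
in odd characteristic. -/
structure Sys (p : ℕ) (ι : L →* SL(2, F)) : Prop where
  inj : Function.Injective ι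
  odd : Odd (Nat.card L)
  hp2 : p ≠ 2

variable {ι : L →* SL(2, F)}

/-- Conjugating the embedding. -/
lemma Sys.conj (S : Sys p ι) (g : SL(2, F)) :
    Sys p ((MulAut.conj g).toMonoidHom.comp ι) where
  inj := (MulAut.conj g).injective.comp S.inj
  odd := S.odd
  hp2 := S.hp2

lemma Sys.two_ne (S : Sys p ι) : (2 : F) ≠ 0 := by
  intro h
  have h1 : ((2 : ℕ) : F) = 0 := by exact_mod_cast h
  have h2 := (CharP.cast_eq_zero_iff F p 2).1 h1
  exact S.hp2 ((Nat.prime_dvd_prime_iff_eq hp.out Nat.prime_two).1 h2)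

lemma Sys.neg_one_ne (S : Sys p ι) : (-1 : SL(2, F)) ≠ 1 := by
  intro h
  have := congrArg (fun M : SL(2, F) => M.1 0 0) h
  simp only [neg_00, one_00] at this
  apply S.two_ne
  linear_combination -this

/-- An element is a power of its square. -/
lemma Sys.exists_pow_sq (S : Sys p ι) (g : L) : ∃ k : ℕ, g = (g * g) ^ k := by
  obtain ⟨m, hm⟩ := S.odd
  refine ⟨m + 1, ?_⟩
  rw [← pow_two, ← pow_mul]
  have h1 : g ^ (2 * (m + 1)) = g ^ (Nat.card L) * g := by
    rw [hm, ← pow_succ]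
    congr 1
  rw [h1, pow_card_eq_one', one_mul]

lemma Sys.eq_one_of_mul_self (S : Sys p ι) {g : L} (h : g * g = 1) : g = 1 := by
  obtain ⟨k, hk⟩ := S.exists_pow_sq g
  rw [h, one_pow] at hk
  exact hk

lemma Sys.ne_neg_one (S : Sys p ι) (x : L) : ι x ≠ -1 := by
  intro h
  have h1 : ι (x * x) = 1 := by
    rw [map_mul, h]; simp
  have h2 : x * x = 1 := S.inj (by rw [h1, map_one])
  have h3 := S.eq_one_of_mul_self h2
  rw [h3, map_one] at h
  exact S.neg_one_ne h.symm

lemma Sys.noncentral (S : Sys p ι) {x : L} (hx : x ≠ 1) : ι x ≠ 1 ∧ ι x ≠ -1 :=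
  ⟨fun h => hx (S.inj (by rw [h, map_one])), S.ne_neg_one x⟩

lemma Sys.comm_of_comm (S : Sys p ι) {x y z : L} (hx : x ≠ 1) (hy : x * y = y * x)
    (hz : x * z = z * x) : y * z = z * y := by
  apply S.inj
  rw [map_mul, map_mul]
  apply commute_of_commute (S.noncentral hx)
  · rw [← map_mul, hy, map_mul]
  · rw [← map_mul, hz, map_mul]

/-- The centralizer of an element. -/
abbrev CC (x : L) : Subgroup L := centralizer ({x} : Set L)

lemma mem_CC {x y : L} : y ∈ CC x ↔ y * x = x * y := mem_centralizer_singleton_iff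

lemma self_mem_CC (x : L) : x ∈ CC x := mem_CC.2 rfl

lemma Sys.CC_eq (S : Sys p ι) {x y : L} (hx : x ≠ 1) (hy : y ≠ 1) (hxy : y ∈ CC x) : CC y = CC x := by
  ext z
  rw [mem_CC, mem_CC]
  have hxy' := mem_CC.1 hxy
  constructor
  · intro h
    exact S.comm_of_comm hy h.symm hxy'
  · intro h
    exact S.comm_of_comm hx h.symm hxy'.symm

lemma cj_CC (g x : L) : cj g (CC x) = CC (g * x * g⁻¹) := by
  ext z
  rw [mem_cj, mem_CC, mem_CC]
  constructor
  · intro h
    calc z * (g * x * g⁻¹) = g * (g⁻¹ * z * g * x) * g⁻¹ := by group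
      _ = g * (x * (g⁻¹ * z * g)) * g⁻¹ := by rw [h]
      _ = g * x * g⁻¹ * z := by group
  · intro h
    calc g⁻¹ * z * g * x = g⁻¹ * (z * (g * x * g⁻¹)) * g := by group
      _ = g⁻¹ * (g * x * g⁻¹ * z) * g := by rw [h]
      _ = x * (g⁻¹ * z * g) := by group

/-- Trace `2` elements have order dividing `p`. -/
lemma Sys.pow_of_tr (S : Sys p ι) {y : L} (hy : tr (ι y) = 2) : y ^ p = 1 := by
  obtain ⟨g, b, hb⟩ := exists_conj_x_of_tr_eq_two (ι y) hy
  apply S.inj
  rw [map_pow, map_one]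
  have h1 : (g * ι y * g⁻¹) ^ p = 1 := by
    rw [hb, x_pow_char]
  rw [conj_pow, mul_inv_eq_one] at h1
  exact mul_left_cancel (a := g) (by rw [h1, mul_one])

lemma Sys.tr_ne_neg_two (S : Sys p ι) (y : L) : tr (ι y) ≠ -2 := by
  intro h
  have hp' := hp.out
  have hodd : Odd p := hp'.odd_of_ne_two S.hp2
  obtain ⟨g, b, hb⟩ := exists_conj_x_of_tr_eq_two (-(ι y)) (by rw [tr_neg, h]; ring)
  have h1 : (g * (-ι y) * g⁻¹) ^ p = 1 := by
    rw [hb, x_pow_char]
  rw [conj_pow, mul_inv_eq_one] at h1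
  have h2 : (-ι y) ^ p = 1 := mul_left_cancel (a := g) (by rw [h1, mul_one])
  rw [hodd.neg_pow, ← map_pow] at h2
  have h3 : ι (y ^ p) = -1 := by
    rw [← h2, neg_neg]
  exact S.ne_neg_one _ h3

lemma Sys.tr_sq_ne (S : Sys p ι) {y : L} (hy : tr (ι y) ≠ 2) : tr (ι y) ^ 2 ≠ 4 := by
  intro h
  have h1 : (tr (ι y) - 2) * (tr (ι y) + 2) = 0 := by linear_combination h
  rcases mul_eq_zero.1 h1 with h2 | h2
  · exact hy (sub_eq_zero.1 h2)
  · exact S.tr_ne_neg_two y (eq_neg_of_add_eq_zero_left h2)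

/-- The centralizer of a nontrivial trace `2` element: all elements have trace `2`. -/
lemma Sys.tr_of_mem (S : Sys p ι) {u y : L} (hu : u ≠ 1) (htr : tr (ι u) = 2) (hy : y ∈ CC u) :
    tr (ι y) = 2 := by
  obtain ⟨g, b, hb0, hb⟩ := exists_conj_x_ne_of_tr_eq_two (ι u) htr (S.noncentral hu).1
  have hc : (g * ι y * g⁻¹) * x b = x b * (g * ι y * g⁻¹) := by
    rw [← hb]
    have h1 : ι y * ι u = ι u * ι y := by
      rw [← map_mul, mem_CC.1 hy, map_mul]
    calc g * ι y * g⁻¹ * (g * ι u * g⁻¹) = g * (ι y * ι u) * g⁻¹ := by group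
      _ = g * (ι u * ι y) * g⁻¹ := by rw [h1]
      _ = g * ι u * g⁻¹ * (g * ι y * g⁻¹) := by group
  rcases eq_x_or_neg_x_of_commute hb0 hc with ⟨t, ht⟩ | ⟨t, ht⟩
  · rw [← tr_conj g, ht, tr_x]
  · exfalso
    apply S.tr_ne_neg_two y
    rw [← tr_conj g, ht, tr_neg, tr_x]

lemma Sys.tr_of_pow (S : Sys p ι) {y : L} {n : ℕ} (hy : y ^ (p ^ n) = 1) : tr (ι y) = 2 := by
  apply tr_eq_two_of_pow_prime_pow p (ι y) n
  rw [← map_pow, hy, map_one]

/-- The `P`-type members. -/
lemma Sys.isP (S : Sys p ι) {u : L} (hu : u ≠ 1) (htr : tr (ι u) = 2) : IsP p (CC u) where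
  pgroup := by
    rintro ⟨y, hy⟩
    refine ⟨1, Subtype.ext ?_⟩
    simpa using S.pow_of_tr (S.tr_of_mem hu htr hy)
  ca := by
    intro a ha ha1 g hg
    rw [← S.CC_eq hu ha1 ha]
    exact mem_CC.2 hg

/-- The centralizer of a non-unipotent element contains no element of order `p`. -/
lemma Sys.not_dvd (S : Sys p ι) {y : L} (hy : tr (ι y) ≠ 2) : ¬ p ∣ Nat.card (CC y) := by
  intro h
  obtain ⟨z, hz⟩ := exists_prime_orderOf_dvd_card' p h
  have hz1 : (z : L) ≠ 1 := by
    intro h1
    have : z = 1 := Subtype.ext h1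
    rw [this, orderOf_one] at hz
    exact hp.out.one_lt.ne hz
  have hzp : (z : L) ^ (p ^ 1) = 1 := by
    rw [pow_one, ← hz, ← Subgroup.orderOf_coe]
    exact pow_orderOf_eq_one _
  apply hy
  apply S.tr_of_mem hz1 (S.tr_of_pow hzp)
  exact mem_CC.2 (mem_CC.1 z.2).symm

/-- The normalizer of a centralizer of a non-unipotent element. -/
lemma Sys.mem_of_normalizer (S : Sys p ι) {y : L} (hy1 : y ≠ 1) (hy : tr (ι y) ≠ 2) {g : L}
    (hg : g ∈ normalizer (CC y : Set L)) : g ∈ CC y := by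
  have h1 : g * y * g⁻¹ ∈ CC y := (mem_normalizer_iff.1 hg y).1 (self_mem_CC y)
  have h2 := mem_CC.1 h1
  have h3 : ι y * ι (g * y * g⁻¹) = ι (g * y * g⁻¹) * ι y := by
    rw [← map_mul, ← map_mul, h2]
  have h4 : tr (ι (g * y * g⁻¹)) = tr (ι y) := by
    rw [map_mul, map_mul, map_inv, tr_conj]
  rcases eq_or_eq_inv_of_commute_of_tr_eq S.two_ne (S.tr_sq_ne hy) h3 h4 with h5 | h5
  · have h6 : g * y * g⁻¹ = y := S.inj h5
    rw [mem_CC]
    rw [mul_inv_eq_iff_eq_mul] at h6
    exact h6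
  · exfalso
    have h6 : g * y * g⁻¹ = y⁻¹ := S.inj (by rw [h5, map_inv])
    have h7 : g * g ∈ CC y := by
      rw [mem_CC]
      have h8 : g * (g * y * g⁻¹) * g⁻¹ = y := by
        have h81 : g * y⁻¹ * g⁻¹ = (g * y * g⁻¹)⁻¹ := by group
        rw [h6, h81, h6, inv_inv]
      calc g * g * y = g * (g * y * g⁻¹) * g⁻¹ * (g * g) := by group
        _ = y * (g * g) := by rw [h8]
    obtain ⟨k, hk⟩ := S.exists_pow_sq g
    have h9 : g ∈ CC y := by
      rw [hk]
      exact Subgroup.pow_mem _ h7 k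
    have h10 := mem_CC.1 h9
    have h11 : y = y⁻¹ := by
      rw [← h6, h10]
      group
    have h12 : y * y = 1 := by
      nth_rewrite 2 [h11]
      exact mul_inv_cancel y
    exact hy1 (S.eq_one_of_mul_self h12)

/-- The `S`-type members. -/
lemma Sys.isS (S : Sys p ι) {y : L} (hy1 : y ≠ 1) (hy : tr (ι y) ≠ 2) : IsS p (CC y) where
  cop := S.not_dvd hy
  inv := fun z hz hz' => absurd (S.mem_of_normalizer hy1 hy hz) hz'
  idx := fun z hz _ _ hz' => absurd (S.mem_of_normalizer hy1 hy hz) hz'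

/-- The members in Borel coordinates. -/
lemma Sys.mem_CC_iff (S : Sys p ι) {u : L} {b : F} (hb : b ≠ 0) (hu : ι u = x b) {y : L} :
    y ∈ CC u ↔ ∃ t, ι y = x t := by
  have hu1 : u ≠ 1 := by
    rintro rfl
    rw [map_one] at hu
    have := congrArg (fun M : SL(2, F) => M.1 0 1) hu
    simp only [one_01, x_01] at this
    exact hb this.symm
  constructor
  · intro hy
    have htr : tr (ι u) = 2 := by rw [hu, tr_x]
    have h1 : ι y * x b = x b * ι y := by
      rw [← hu, ← map_mul, mem_CC.1 hy, map_mul]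
    rcases eq_x_or_neg_x_of_commute hb h1 with h2 | ⟨t, ht⟩
    · exact h2
    · exfalso
      apply S.tr_ne_neg_two y
      rw [ht, tr_neg, tr_x]
  · rintro ⟨t, ht⟩
    rw [mem_CC]
    apply S.inj
    rw [map_mul, map_mul, hu, ht]
    exact x_commute t b

/-- Elements of the normalizer are upper triangular. -/
lemma Sys.upper_of_normalizer (S : Sys p ι) {u : L} {b : F} (hb : b ≠ 0) (hu : ι u = x b) {g : L}
    (hg : g ∈ normalizer (CC u : Set L)) : (ι g).1 1 0 = 0 := by
  have hu1 : u ≠ 1 := by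
    rintro rfl
    rw [map_one] at hu
    have := congrArg (fun M : SL(2, F) => M.1 0 1) hu
    simp only [one_01, x_01] at this
    exact hb this.symm
  have h1 : g * u * g⁻¹ ∈ CC u := (mem_normalizer_iff.1 hg u).1 (self_mem_CC u)
  obtain ⟨t, ht⟩ := (S.mem_CC_iff hb hu).1 h1
  have ht0 : t ≠ 0 := by
    rintro rfl
    rw [x_zero] at ht
    have h2 : g * u * g⁻¹ = 1 := S.inj (by rw [ht, map_one])
    apply hu1
    rw [mul_inv_eq_one] at h2
    exact mul_left_cancel (a := g) (by rw [h2, mul_one])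
  rw [map_mul, map_mul, map_inv, hu] at ht
  exact ((conj_x_eq_x_iff ht0).1 ht).1

/-- Upper triangular elements of the image normalize. -/
lemma Sys.mem_normalizer_of_upper (S : Sys p ι) {u : L} {b : F} (hb : b ≠ 0) (hu : ι u = x b) {g : L}
    (hg : (ι g).1 1 0 = 0) : g ∈ normalizer (CC u : Set L) := by
  have key : ∀ z : L, (ι z).1 1 0 = 0 → ∀ h : L, h ∈ CC u → z * h * z⁻¹ ∈ CC u := by
    intro z hz h hh
    obtain ⟨t, ht⟩ := (S.mem_CC_iff hb hu).1 hh
    refine (S.mem_CC_iff hb hu).2 ⟨(ι z).1 0 0 * t * (ι z).1 0 0, ?_⟩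
    rw [map_mul, map_mul, map_inv, ht, conj_x_of_upper hz]
  rw [mem_normalizer_iff]
  intro h
  refine ⟨key g hg h, fun h1 => ?_⟩
  have hg' : (ι g⁻¹).1 1 0 = 0 := by
    rw [map_inv, inv_10, hg, neg_zero]
  have := key g⁻¹ hg' _ h1
  simpa [mul_assoc] using this

/-- The diagonal character on the normalizer. -/
noncomputable def chi (S : Sys p ι) {u : L} {b : F} (hb : b ≠ 0) (hu : ι u = x b) :
    normalizer (CC u : Set L) →* Fˣ where
  toFun g := Units.mk0 ((ι g.1).1 0 0) (by
    intro h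
    have hdet := det_entries (ι g.1)
    rw [h, S.upper_of_normalizer hb hu g.2] at hdet
    simp at hdet)
  map_one' := by
    ext
    simp
  map_mul' g h := by
    ext
    simp only [Subgroup.coe_mul, map_mul, Units.val_mk0, mul_00, S.upper_of_normalizer hb hu h.2,
      Units.val_mul, mul_zero, add_zero]

lemma chi_val (S : Sys p ι) {u : L} {b : F} (hb : b ≠ 0) (hu : ι u = x b)
    (g : normalizer (CC u : Set L)) : ((chi S hb hu g : Fˣ) : F) = (ι g.1).1 0 0 := rfl

lemma Sys.mem_of_chi (S : Sys p ι) {u : L} {b : F} (hb : b ≠ 0) (hu : ι u = x b)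
    (g : normalizer (CC u : Set L)) : chi S hb hu g = 1 ↔ g.1 ∈ CC u := by
  have hup := S.upper_of_normalizer hb hu g.2
  constructor
  · intro h
    have h1 : (ι g.1).1 0 0 = 1 := by
      rw [← chi_val S hb hu, h, Units.val_one]
    have hdet := det_entries (ι g.1)
    rw [hup, h1] at hdet
    have h2 : (ι g.1).1 1 1 = 1 := by linear_combination hdet
    refine (S.mem_CC_iff hb hu).2 ⟨(ι g.1).1 0 1, ?_⟩
    apply ext2 <;> simp [h1, h2, hup]
  · intro h
    obtain ⟨t, ht⟩ := (S.mem_CC_iff hb hu).1 h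
    ext
    rw [chi_val, ht]
    simp

/-- No element of `Fˣ` has order `p`. -/
lemma units_pow_char_eq_one {a : Fˣ} (h : a ^ p = 1) : a = 1 := by
  have h1 : (a : F) ^ p = 1 := by
    have := congrArg (fun z : Fˣ => (z : F)) h
    simpa using this
  have h2 : ((a : F) - 1) ^ p = 0 := by
    rw [sub_pow_char, h1, one_pow, sub_self]
  have h3 := pow_eq_zero_iff (hp.out.ne_zero) |>.1 h2
  ext
  simpa using sub_eq_zero.1 h3

/-- The complement-type member attached to a unipotent member, in Borel coordinates. -/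
theorem Sys.comp_aux (S : Sys p ι) {u : L} {b : F} (hb : b ≠ 0) (hu : ι u = x b)
    (hne : (normalizer (CC u : Set L) : Subgroup L) ≠ CC u) :
    ∃ y : L, y ≠ 1 ∧ tr (ι y) ≠ 2 ∧ CC y ≤ normalizer (CC u : Set L) ∧
      Nat.card (CC y) = (CC u).relIndex (normalizer (CC u : Set L)) := by
  classical
  have hu1 : u ≠ 1 := by
    rintro rfl
    rw [map_one] at hu
    have := congrArg (fun M : SL(2, F) => M.1 0 1) hu
    simp only [one_01, x_01] at this
    exact hb this.symm
  have htru : tr (ι u) = 2 := by rw [hu, tr_x]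
  set N : Subgroup L := normalizer (CC u : Set L) with hN
  let χ : N →* Fˣ := chi S hb hu
  have hker : χ.ker = (CC u).subgroupOf N := by
    ext g
    rw [MonoidHom.mem_ker, mem_subgroupOf]
    exact S.mem_of_chi hb hu g
  have hrel : (CC u).relIndex N = Nat.card χ.range := by
    rw [Subgroup.relIndex, ← hker, Subgroup.index_ker]
  set c := Nat.card χ.range with hc
  have hc1 : c ≠ 1 := by
    intro h
    rw [h, Subgroup.relIndex_eq_one] at hrel
    exact hne (le_antisymm hrel le_normalizer)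
  have hfin : Finite χ.range := Finite.of_surjective χ.rangeRestrict χ.rangeRestrict_surjective
  have hcyc : IsCyclic χ.range := by
    exact isCyclic_of_injective_ringHom ((Units.coeHom F).comp χ.range.subtype)
      (fun a b h => Subtype.ext (Units.ext h))
  obtain ⟨r, hr⟩ := IsCyclic.exists_ofOrder_eq_natCard (α := χ.range)
  obtain ⟨g, hg⟩ := r.2
  have hgr : orderOf (χ g) = c := by
    rw [hg, Subgroup.orderOf_coe, hr]
  -- the order of the character group is prime to `p`
  have hcp : ¬ p ∣ c := by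
    intro h
    obtain ⟨z, hz⟩ := exists_prime_orderOf_dvd_card' p h
    have h1 : ((z : Fˣ)) ^ p = 1 := by
      rw [← hz, ← Subgroup.orderOf_coe]
      exact pow_orderOf_eq_one _
    have h2 := units_pow_char_eq_one h1
    have h3 : z = 1 := Subtype.ext h2
    rw [h3, orderOf_one] at hz
    exact hp.out.one_lt.ne hz
  have hMp : IsPGroup p (CC u) := (S.isP hu1 htru).pgroup
  obtain ⟨k, hk⟩ := IsPGroup.iff_card.1 hMp
  set m := Nat.card (CC u) with hm
  have hcop : c.Coprime m := by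
    rw [hk]
    exact Nat.Coprime.pow_right k ((Nat.Prime.coprime_iff_not_dvd hp.out).2 hcp).symm
  let y' : N := g ^ m
  let y : L := y'.1
  have hχy : orderOf (χ y') = c := by
    simp only [y', map_pow]
    rw [Nat.Coprime.orderOf_pow (by rw [hgr]; exact hcop), hgr]
  have hy'c : y' ^ c = 1 := by
    have h1 : χ (g ^ c) = 1 := by
      rw [map_pow, ← hgr, pow_orderOf_eq_one]
    have h2 : (g ^ c).1 ∈ CC u := (S.mem_of_chi hb hu _).1 h1
    have h3 : (⟨(g ^ c).1, h2⟩ : CC u) ^ m = 1 := pow_card_eq_one'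
    have h4 := congrArg Subtype.val h3
    simp only [SubmonoidClass.mk_pow, OneMemClass.coe_one] at h4
    simp only [y']
    rw [← pow_mul, mul_comm, pow_mul]
    exact Subtype.ext h4
  have hy'ord : orderOf y' = c := by
    apply Nat.dvd_antisymm (orderOf_dvd_of_pow_eq_one hy'c)
    rw [← hχy]
    exact orderOf_map_dvd χ y'
  have hyord : orderOf y = c := by
    simp only [y]
    rw [Subgroup.orderOf_coe, hy'ord]
  have hy1 : y ≠ 1 := by
    intro h
    rw [h, orderOf_one] at hyord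
    exact hc1 hyord.symm
  have hyup : (ι y).1 1 0 = 0 := S.upper_of_normalizer hb hu y'.2
  have hytr : tr (ι y) ≠ 2 := by
    intro h
    rw [tr_def] at h
    have hdet := det_entries (ι y)
    rw [hyup] at hdet
    have h1 : ((ι y).1 0 0 - 1) ^ 2 = 0 := by
      have h2 : (ι y).1 1 1 = 2 - (ι y).1 0 0 := by linear_combination h
      rw [h2] at hdet
      linear_combination -hdet
    have h2 : (ι y).1 0 0 = 1 := sub_eq_zero.1 (pow_eq_zero_iff (two_ne_zero)|>.1 h1)
    have h3 : χ y' = 1 := by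
      ext
      exact h2
    rw [h3, orderOf_one] at hχy
    exact hc1 hχy.symm
  have hle : CC y ≤ N := by
    intro z hz
    apply S.mem_normalizer_of_upper hb hu
    have h1 : ι y * ι z = ι z * ι y := by
      rw [← map_mul, ← mem_CC.1 hz, map_mul]
    obtain ⟨α, β, h2⟩ := exists_eq_of_commute (S.noncentral hy1) h1
    rw [h2]
    simp [hyup]
  refine ⟨y, hy1, hytr, hle, ?_⟩
  rw [hrel]
  apply le_antisymm
  · -- injective map to the character group
    let f : CC y → χ.range := fun z => ⟨χ ⟨z.1, hle z.2⟩, ⟨_, rfl⟩⟩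
    apply Nat.card_le_card_of_injective f
    rintro ⟨z, hz⟩ ⟨z', hz'⟩ h
    have h1 : χ ⟨z, hle hz⟩ = χ ⟨z', hle hz'⟩ := congrArg Subtype.val h
    have h2 : χ (⟨z, hle hz⟩⁻¹ * ⟨z', hle hz'⟩) = 1 := by
      rw [map_mul, map_inv, h1, inv_mul_cancel]
    have h3 : z⁻¹ * z' ∈ CC u := (S.mem_of_chi hb hu _).1 h2
    have h4 : z⁻¹ * z' ∈ CC y := (CC y).mul_mem ((CC y).inv_mem hz) hz'
    by_contra hne'
    have h5 : z⁻¹ * z' ≠ 1 := by
      intro h6
      apply hne'
      apply Subtype.ext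
      exact (inv_mul_eq_one.1 h6)
    have h6 := S.pow_of_tr (S.tr_of_mem hu1 htru h3)
    have h7 : orderOf (z⁻¹ * z') = p := orderOf_eq_prime h6 h5
    apply S.not_dvd hytr
    rw [← h7]
    exact Subgroup.orderOf_dvd_natCard _ h4
  · have h1 : orderOf y ∣ Nat.card (CC y) := Subgroup.orderOf_dvd_natCard _ (self_mem_CC y)
    rw [hyord] at h1
    exact Nat.le_of_dvd Nat.card_pos h1

/-- The partition data. -/
noncomputable def Sys.dp (S : Sys p ι) : Dp L p where
  mem := {M | ∃ x : L, x ≠ 1 ∧ M = CC x}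
  ne_bot := by
    rintro M ⟨x, hx, rfl⟩ h
    have := self_mem_CC x
    rw [h, mem_bot] at this
    exact hx this
  comm := by
    rintro M ⟨x, hx, rfl⟩ a ha b hb
    exact S.comm_of_comm hx (mem_CC.1 ha).symm (mem_CC.1 hb).symm
  conj := by
    rintro M ⟨x, hx, rfl⟩ g
    refine ⟨g * x * g⁻¹, ?_, cj_CC g x⟩
    intro h
    apply hx
    rw [mul_inv_eq_one] at h
    exact mul_left_cancel (a := g) (by rw [h, mul_one])
  cover := fun x hx => ⟨CC x, ⟨x, hx, rfl⟩, self_mem_CC x⟩
  disj := by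
    rintro M ⟨a, ha, rfl⟩ N ⟨b, hb, rfl⟩ x hx hxa hxb
    rw [← S.CC_eq ha hx hxa, ← S.CC_eq hb hx hxb]
  kind := by
    rintro M ⟨a, ha, rfl⟩
    by_cases h : tr (ι a) = 2
    · left; exact S.isP ha h
    · right; exact S.isS ha h
  comp := by
    rintro M ⟨a, ha, rfl⟩ hP hne
    have htr : tr (ι a) = 2 := by
      obtain ⟨k, hk⟩ := hP.pgroup ⟨a, self_mem_CC a⟩
      apply S.tr_of_pow (n := k)
      exact congrArg Subtype.val hk
    obtain ⟨g, b, hb, hg⟩ := exists_conj_x_ne_of_tr_eq_two (ι a) htr (S.noncentral ha).1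
    have S' := S.conj g
    obtain ⟨y, hy1, hy, hle, hcard⟩ := S'.comp_aux (u := a) hb hg hne
    refine ⟨CC y, ⟨y, hy1, rfl⟩, S.isS hy1 ?_, hle, hcard⟩
    intro h
    apply hy
    show tr (g * ι y * g⁻¹) = 2
    rw [tr_conj, h]

/-- A finite subgroup of odd order of `SL(2, F)` has normal Sylow `p`-subgroups. -/
theorem Sys.normal_sylow (S : Sys p ι) (Q : Sylow p L) : (Q : Subgroup L).Normal := by
  have hodd := S.odd
  have hno2 : ¬ 2 ∣ Nat.card L := by
    rw [← even_iff_two_dvd]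
    exact Nat.not_even_iff_odd.2 hodd
  have hA : ∀ M : Subgroup L, M.Normal → IsP p M → M ∈ S.dp.mem → (Q : Subgroup L).Normal := by
    intro M hMn hMP hMm
    obtain ⟨Q', hQ'⟩ := Cfsg.Agent.Lib.PSL2.DCount.isP_sylow S.dp hMm hMP
    have h1 : (Q' : Subgroup L).Normal := by rw [hQ']; exact hMn
    obtain ⟨g, hg⟩ := MulAction.exists_smul_eq L Q' Q
    have h2 : g • Q' = Q' := Sylow.smul_eq_of_normal
    rw [← hg, h2]
    exact h1
  rcases classify S.dp with h | h | ⟨M, -, -, hM⟩ | ⟨M, hm, hP, hn⟩ | ⟨h, -⟩ | ⟨h, -⟩ | ⟨h, -⟩ |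
      ⟨M, -, -, -, -, hcard, -⟩
  · have : Subsingleton L := (Nat.card_eq_one_iff_unique.1 h).1
    constructor
    intro n hn g
    rwa [Subsingleton.elim (g * n * g⁻¹) n]
  · rcases S.dp.kind _ h with hP | hS
    · exact hA ⊤ inferInstance hP h
    · have h1 : ¬ p ∣ Nat.card (⊤ : Subgroup L) := hS.cop
      have h2 : (Q : Subgroup L) = ⊥ := by
        obtain ⟨k, hk⟩ := IsPGroup.iff_card.1 Q.isPGroup'
        have h3 : Nat.card (Q : Subgroup L) ∣ Nat.card (⊤ : Subgroup L) := by
          rw [Subgroup.card_top]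
          exact Subgroup.card_subgroup_dvd_card _
        rcases k with _ | k
        · simpa using Subgroup.eq_bot_of_card_eq _ (by simpa using hk)
        · exfalso
          apply h1
          rw [hk] at h3
          exact (dvd_pow_self p (Nat.succ_ne_zero k)).trans h3
      rw [h2]
      infer_instance
  · exfalso
    apply hno2
    rw [← hM]
    exact Subgroup.index_dvd_card M
  · exact hA M hn hP hm
  · exfalso; apply hno2; rw [h]; norm_num
  · exfalso; apply hno2; rw [h]; norm_num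
  · exfalso; apply hno2; rw [h]; norm_num
  · exfalso
    have h1 : Nat.card M ∣ Nat.card L := Subgroup.card_subgroup_dvd_card M
    have h2 : Odd (Nat.card M) := hodd.of_dvd_nat h1
    have h3 : 2 ∣ Nat.card M + 1 := even_iff_two_dvd.1 h2.add_one
    apply hno2
    rw [hcard]
    exact h3.trans (Dvd.intro_left _ rfl)

/-- Any two elements of order dividing `p` commute. -/
theorem Sys.commute_of_pow (S : Sys p ι) {u w : L} (hu : u ^ p = 1) (hw : w ^ p = 1) :
    u * w = w * u := by
  by_cases hu1 : u = 1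
  · rw [hu1, one_mul, mul_one]
  have htr : tr (ι u) = 2 := S.tr_of_pow (n := 1) (by rwa [pow_one])
  have hP := S.isP hu1 htr
  have hm : CC u ∈ S.dp.mem := ⟨u, hu1, rfl⟩
  obtain ⟨Q, hQ⟩ := Cfsg.Agent.Lib.PSL2.DCount.isP_sylow S.dp hm hP
  have hQn := S.normal_sylow Q
  have hpw : IsPGroup p (zpowers w) := by
    rintro ⟨z, hz⟩
    obtain ⟨k, rfl⟩ := mem_zpowers_iff.1 hz
    refine ⟨1, Subtype.ext ?_⟩
    show (w ^ k) ^ p ^ 1 = 1
    rw [pow_one, ← zpow_natCast, ← _root_.zpow_mul, mul_comm, _root_.zpow_mul, zpow_natCast, hw, _root_.one_zpow]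
  obtain ⟨Q', hQ'⟩ := hpw.exists_le_sylow
  have hQQ' : Q' = Q := by
    obtain ⟨g, hg⟩ := MulAction.exists_smul_eq L Q Q'
    have h2 : g • Q = Q := Sylow.smul_eq_of_normal
    rw [← hg, h2]
  have hwQ : w ∈ CC u := by
    rw [← hQ, ← hQQ']
    exact hQ' (mem_zpowers w)
  exact (mem_CC.1 hwQ).symm

end Main

end Cfsg.Agent.Lib.PSL2.DOdd
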