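import Mathlib

/-!
# A subgroup extended by an element of prime order normalizing it, of coprime order
-/

set_option autoImplicit false
set_option linter.unusedSectionVars false
set_option linter.unusedVariables false
set_option linter.style.haveILetI false

namespace Cfsg.Agent.Lib.PSL2.CoprimeSup

open Subgroup

variable {G : Type*} [Group G] {R : Subgroup G} {a : G} {p : ℕ}

lemma zpow_mem_normalizer (haN : a ∈ normalizer (R : Set G)) (i : ℤ) : a ^ i ∈ normalizer (R : Set G) :=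
  zpow_mem haN i

lemma conj_mem_of_normalizer {n : G} (hn : n ∈ normalizer (R : Set G)) {r : G} (hr : r ∈ R) :
    n * r * n⁻¹ ∈ R :=
  (mem_normalizer_iff.1 hn r).1 hr

/-- Elements of the join. -/
theorem mem_sup_iff (haN : a ∈ normalizer (R : Set G)) {z : G} :
    z ∈ R ⊔ zpowers a ↔ ∃ r ∈ R, ∃ i : ℤ, z = r * a ^ i := by
  constructor
  · intro hz
    let S : Subgroup G :=
      { carrier := {z | ∃ r ∈ R, ∃ i : ℤ, z = r * a ^ i}
        one_mem' := ⟨1, R.one_mem, 0, by simp⟩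
        mul_mem' := by
          rintro _ _ ⟨r, hr, i, rfl⟩ ⟨s, hs, j, rfl⟩
          refine ⟨r * (a ^ i * s * (a ^ i)⁻¹), R.mul_mem hr
            (conj_mem_of_normalizer (zpow_mem_normalizer haN i) hs), i + j, ?_⟩
          rw [zpow_add]
          group
        inv_mem' := by
          rintro _ ⟨r, hr, i, rfl⟩
          refine ⟨a ^ (-i) * r⁻¹ * (a ^ (-i))⁻¹,
            conj_mem_of_normalizer (zpow_mem_normalizer haN (-i)) (R.inv_mem hr), -i, ?_⟩
          group }
    have h1 : R ≤ S := fun r hr => ⟨r, hr, 0, by simp⟩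
    have h2 : zpowers a ≤ S := by
      rw [zpowers_le]
      exact ⟨1, R.one_mem, 1, by simp⟩
    exact sup_le h1 h2 hz
  · rintro ⟨r, hr, i, rfl⟩
    exact mul_mem ((le_sup_left : R ≤ R ⊔ zpowers a) hr)
      ((le_sup_right : zpowers a ≤ R ⊔ zpowers a) (zpow_mem (mem_zpowers a) i))

variable [Finite G]

lemma eq_one_of_coprime (hcop : (Nat.card R).Coprime p) {r : G} (hr : r ∈ R) (h : r ^ p = 1) : r = 1 := by
  have h1 : orderOf r ∣ p := orderOf_dvd_of_pow_eq_one h
  have h2 : orderOf r ∣ Nat.card R := by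
    have := orderOf_dvd_natCard (⟨r, hr⟩ : R)
    rwa [Subgroup.orderOf_mk] at this
  have h3 := Nat.dvd_gcd h2 h1
  rw [hcop] at h3
  exact orderOf_eq_one_iff.1 (Nat.dvd_one.1 h3)

/-- The intersection of `R` and `⟨a⟩`. -/
lemma zpow_eq_one_of_mem (hord : orderOf a = p) (hcop : (Nat.card R).Coprime p) {i : ℤ}
    (h : a ^ i ∈ R) : a ^ i = 1 := by
  apply eq_one_of_coprime hcop h
  rw [← zpow_natCast, ← zpow_mul, mul_comm, zpow_mul, zpow_natCast, ← hord, pow_orderOf_eq_one, one_zpow]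

/-- The order of the join. -/
theorem card_sup (hp : p.Prime) (haN : a ∈ normalizer (R : Set G)) (hord : orderOf a = p)
    (hcop : (Nat.card R).Coprime p) : Nat.card (R ⊔ zpowers a : Subgroup G) = Nat.card R * p := by
  let f : R × zpowers a → (R ⊔ zpowers a : Subgroup G) := fun u =>
    ⟨u.1.1 * u.2.1, mul_mem ((le_sup_left : R ≤ R ⊔ zpowers a) u.1.2)
      ((le_sup_right : zpowers a ≤ R ⊔ zpowers a) u.2.2)⟩
  have hf : Function.Bijective f := by
    constructor
    · rintro ⟨r, c⟩ ⟨r', c'⟩ h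
      have h1 : r.1 * c.1 = r'.1 * c'.1 := congrArg Subtype.val h
      have h2 : r'.1⁻¹ * r.1 = c'.1 * c.1⁻¹ := by
        calc r'.1⁻¹ * r.1 = r'.1⁻¹ * (r.1 * c.1) * c.1⁻¹ := by group
          _ = c'.1 * c.1⁻¹ := by rw [h1]; group
      obtain ⟨i, hi⟩ := mem_zpowers_iff.1 (mul_mem c'.2 (inv_mem c.2))
      have h3 : a ^ i ∈ R := by
        rw [hi, ← h2]
        exact R.mul_mem (R.inv_mem r'.2) r.2
      have h4 := zpow_eq_one_of_mem hord hcop h3
      rw [hi] at h4
      have h5 : c'.1 = c.1 := by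
        have := mul_inv_eq_one.1 h4
        exact this
      have h6 : r.1 = r'.1 := by
        rw [h5] at h1
        exact mul_right_cancel h1
      exact Prod.ext (Subtype.ext h6) (Subtype.ext h5.symm)
    · rintro ⟨z, hz⟩
      obtain ⟨r, hr, i, rfl⟩ := (mem_sup_iff haN).1 hz
      exact ⟨(⟨r, hr⟩, ⟨a ^ i, zpow_mem (mem_zpowers a) i⟩), rfl⟩
  rw [← Nat.card_congr (Equiv.ofBijective f hf), Nat.card_prod, Nat.card_zpowers, hord]

/-- Elements of order prime to `p` lie in `R`. -/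
theorem mem_of_pow (hp : p.Prime) (haN : a ∈ normalizer (R : Set G)) (hord : orderOf a = p)
    (hcop : (Nat.card R).Coprime p) {z : G} (hz : z ∈ R ⊔ zpowers a) {n : ℕ} (hn : n.Coprime p)
    (h : z ^ n = 1) : z ∈ R := by
  obtain ⟨r, hr, i, rfl⟩ := (mem_sup_iff haN).1 hz
  have key : ∀ k : ℕ, ∃ s ∈ R, (r * a ^ i) ^ k = s * a ^ (i * k) := by
    intro k
    induction k with
    | zero => exact ⟨1, R.one_mem, by simp⟩
    | succ k ih =>
      obtain ⟨s, hs, e⟩ := ih
      refine ⟨s * (a ^ (i * k) * r * (a ^ (i * k))⁻¹), R.mul_mem hs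
        (conj_mem_of_normalizer (zpow_mem_normalizer haN _) hr), ?_⟩
      rw [pow_succ, e]
      have e2 : a ^ (i * ((k + 1 : ℕ) : ℤ)) = a ^ (i * k) * a ^ i := by
        rw [← zpow_add]
        congr 1
        push_cast
        ring
      rw [e2]
      group
  obtain ⟨s, hs, e⟩ := key n
  rw [h] at e
  have h1 : a ^ (i * n) ∈ R := by
    have : a ^ (i * n) = s⁻¹ := eq_inv_of_mul_eq_one_right e.symm
    rw [this]
    exact R.inv_mem hs
  have h2 := zpow_eq_one_of_mem hord hcop h1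
  have h3 : (p : ℤ) ∣ i * n := by
    rw [← hord]
    exact orderOf_dvd_iff_zpow_eq_one.2 h2
  have h4 : (p : ℤ) ∣ i := by
    have hc : IsCoprime (p : ℤ) (n : ℤ) := by
      exact_mod_cast (Nat.isCoprime_iff_coprime.2 hn.symm)
    exact hc.dvd_of_dvd_mul_right h3
  have h5 : a ^ i = 1 := by
    rw [← hord] at h4
    exact orderOf_dvd_iff_zpow_eq_one.1 h4
  rw [h5, mul_one]
  exact hr

end Cfsg.Agent.Lib.PSL2.CoprimeSup
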