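import Mathlib
import Cfsg.Agent.Lib.PSL2.FrobSpec
import Cfsg.Agent.S3378

/-!
Existence of a solvable Frobenius group from a finite list of matrices over `ZMod p`.
-/

set_option autoImplicit false

namespace Cfsg.Agent.Lib.PSL2.FrobSpec2

open scoped Matrix MatrixGroups
open Cfsg.Agent.Lib.PSL2.FrobSpec

theorem mem_range_of_dvd {G : Type*} [Group G] (x : G) (hx : orderOf x ≠ 0) {d : ℕ}
    (hd : d ∣ orderOf x) : d ∈ Set.range (orderOf : G → ℕ) :=
  ⟨x ^ (orderOf x / d), orderOf_pow_orderOf_div hx hd⟩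

theorem exists_frob {p m : ℕ} [Fact p.Prime] [NeZero m] (hp2 : (2 : ZMod p) ≠ 0)
    (hp3 : (3 : ZMod p) ≠ 0)
    (A B : GL (Fin m) (ZMod p)) (L : List (Matrix (Fin m) (Fin m) (ZMod p))) (a b : ℕ)
    (hone : (1 : Matrix (Fin m) (Fin m) (ZMod p)) ∈ L)
    (hcl : ∀ x ∈ L, A.1 * x ∈ L ∧ B.1 * x ∈ L ∧ A⁻¹.1 * x ∈ L ∧ B⁻¹.1 * x ∈ L)
    (hlen : L.length < 60)
    (hA : orderOf A = a) (hB : orderOf B = b) (ha : a ≠ 0) (hb : b ≠ 0)
    (hord : ∀ x ∈ L, x ^ a = 1 ∨ x ^ b = 1)
    (hfpf : ∀ x ∈ L, x = 1 ∨ (∃ j : ℕ, x ^ j = -1) ∨ 1 + x + x ^ 2 = 0) :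
    ∃ (H : Type) (_ : Group H) (_ : Fintype H), Group.IsSolvable H ∧
      Set.range (orderOf : H → ℕ) = {d | d ∣ a ∨ d ∣ b ∨ d ∣ p} := by
  classical
  let K : Subgroup (GL (Fin m) (ZMod p)) := Subgroup.closure {A, B}
  have hmem : ∀ g : GL (Fin m) (ZMod p), g ∈ K → g.1 ∈ L := by
    intro g hg
    induction hg using Subgroup.closure_induction_left with
    | one => simpa using hone
    | mul_left x hx y _ ih =>
      rcases hx with rfl | rfl
      · simpa using (hcl _ ih).1
      · simpa using (hcl _ ih).2.1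
    | inv_mul_cancel x hx y _ ih =>
      rcases hx with rfl | rfl
      · simpa using (hcl _ ih).2.2.1
      · simpa using (hcl _ ih).2.2.2
  have hcard : Nat.card K < 60 := by
    have hinj : Function.Injective (fun k : K => (⟨(k : GL (Fin m) (ZMod p)).1,
        List.mem_toFinset.mpr (hmem _ k.2)⟩ : L.toFinset)) := by
      intro x y hxy
      have := congrArg Subtype.val hxy
      exact Subtype.ext (Units.ext this)
    have h1 := Nat.card_le_card_of_injective _ hinj
    have h2 : Nat.card L.toFinset = L.toFinset.card := by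
      rw [Nat.card_eq_fintype_card, Fintype.card_coe]
    have h3 := List.toFinset_card_le L
    omega
  haveI hKsolv : Group.IsSolvable K := Cfsg.Agent.S3378.solv_lt60 _ K rfl hcard
  haveI : Finite (Multiplicative (Fin m → ZMod p) ⋊[act K] K) :=
    Finite.of_equiv _ (SemidirectProduct.equivProd).symm
  have hA' : A ∈ K := Subgroup.subset_closure (by simp)
  have hB' : B ∈ K := Subgroup.subset_closure (by simp)
  have hfp : ∀ k : K, k ≠ 1 → ∀ v : Fin m → ZMod p, (k : GL (Fin m) (ZMod p)).1 *ᵥ v = v → v = 0 := by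
    intro k hk v hv
    have hpow : ∀ j : ℕ, ((k : GL (Fin m) (ZMod p)).1 ^ j) *ᵥ v = v := by
      intro j
      induction j with
      | zero => simp
      | succ j ih => rw [pow_succ, ← Matrix.mulVec_mulVec, hv, ih]
    have h2v : ∀ c : ZMod p, c ≠ 0 → c • v = 0 → v = 0 := by
      intro c hc h
      exact (smul_eq_zero.mp h).resolve_left hc
    rcases hfpf _ (hmem _ k.2) with h | ⟨j, h⟩ | h
    · exact absurd (Subtype.ext (Units.ext h)) hk
    · have h1 := hpow j
      rw [h, Matrix.neg_mulVec, Matrix.one_mulVec] at h1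
      apply h2v 2 hp2
      rw [two_smul]
      nth_rewrite 1 [← h1]
      simp
    · have h1 : (1 + (k : GL (Fin m) (ZMod p)).1 + (k : GL (Fin m) (ZMod p)).1 ^ 2) *ᵥ v = 0 := by
        rw [h, Matrix.zero_mulVec]
      rw [Matrix.add_mulVec, Matrix.add_mulVec, Matrix.one_mulVec, hv, hpow 2] at h1
      apply h2v 3 hp3
      have : (3 : ZMod p) • v = v + v + v := by
        ext i
        simp
        ring
      rw [this, h1]
  refine ⟨Multiplicative (Fin m → ZMod p) ⋊[act K] K, inferInstance, Fintype.ofFinite _,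
    isSolvable_sd _, ?_⟩
  rw [range_orderOf_act K hfp]
  ext d
  simp only [Set.mem_union, Set.mem_range, Set.mem_insert_iff, Set.mem_singleton_iff,
    Set.mem_ofPred_eq]
  constructor
  · rintro (⟨k, rfl⟩ | h | h)
    · rcases hord _ (hmem _ k.2) with h | h
      · left
        apply orderOf_dvd_of_pow_eq_one
        exact Subtype.ext (Units.ext (by simpa using h))
      · right; left
        apply orderOf_dvd_of_pow_eq_one
        exact Subtype.ext (Units.ext (by simpa using h))
    · right; right; rw [h]; exact one_dvd _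
    · right; right; rw [h]
  · rintro (h | h | h)
    · left
      have h1 : orderOf (⟨A, hA'⟩ : K) = a := by
        rw [Subgroup.orderOf_mk, hA]
      exact mem_range_of_dvd (⟨A, hA'⟩ : K) (by rw [h1]; exact ha) (by rw [h1]; exact h)
    · left
      have h1 : orderOf (⟨B, hB'⟩ : K) = b := by
        rw [Subgroup.orderOf_mk, hB]
      exact mem_range_of_dvd (⟨B, hB'⟩ : K) (by rw [h1]; exact hb) (by rw [h1]; exact h)
    · right
      rcases (Nat.dvd_prime (Fact.out : p.Prime)).mp h with h | h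
      · left; exact h
      · right; exact h

end Cfsg.Agent.Lib.PSL2.FrobSpec2
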