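import Mathlib
import Cfsg.Agent.Lib.PSL2.FrobSpec2

/-!
`4 × 4` matrices over `ZMod p` encoded by natural numbers, so that the kernel can do the checks behind a
finite Frobenius complement quickly and with little memory.
-/

set_option autoImplicit false

namespace Cfsg.Agent.Lib.PSL2.EncMat4

open scoped MatrixGroups

/-- sixteen natural numbers -/
structure E4 where
  (x00 x01 x02 x03 x10 x11 x12 x13 x20 x21 x22 x23 x30 x31 x32 x33 : ℕ)
  deriving DecidableEq

/-- the matrix over `ZMod p` encoded -/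
def toMat (p : ℕ) (x : E4) : Matrix (Fin 4) (Fin 4) (ZMod p) :=
  !![(x.x00 : ZMod p), (x.x01 : ZMod p), (x.x02 : ZMod p), (x.x03 : ZMod p); (x.x10 : ZMod p), (x.x11 : ZMod p), (x.x12 : ZMod p), (x.x13 : ZMod p); (x.x20 : ZMod p), (x.x21 : ZMod p), (x.x22 : ZMod p), (x.x23 : ZMod p); (x.x30 : ZMod p), (x.x31 : ZMod p), (x.x32 : ZMod p), (x.x33 : ZMod p)]

/-- product -/
def mulE (p : ℕ) (x y : E4) : E4 :=
  ⟨(x.x00 * y.x00 + x.x01 * y.x10 + x.x02 * y.x20 + x.x03 * y.x30) % p,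
    (x.x00 * y.x01 + x.x01 * y.x11 + x.x02 * y.x21 + x.x03 * y.x31) % p,
    (x.x00 * y.x02 + x.x01 * y.x12 + x.x02 * y.x22 + x.x03 * y.x32) % p,
    (x.x00 * y.x03 + x.x01 * y.x13 + x.x02 * y.x23 + x.x03 * y.x33) % p,
    (x.x10 * y.x00 + x.x11 * y.x10 + x.x12 * y.x20 + x.x13 * y.x30) % p,
    (x.x10 * y.x01 + x.x11 * y.x11 + x.x12 * y.x21 + x.x13 * y.x31) % p,
    (x.x10 * y.x02 + x.x11 * y.x12 + x.x12 * y.x22 + x.x13 * y.x32) % p,
    (x.x10 * y.x03 + x.x11 * y.x13 + x.x12 * y.x23 + x.x13 * y.x33) % p,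
    (x.x20 * y.x00 + x.x21 * y.x10 + x.x22 * y.x20 + x.x23 * y.x30) % p,
    (x.x20 * y.x01 + x.x21 * y.x11 + x.x22 * y.x21 + x.x23 * y.x31) % p,
    (x.x20 * y.x02 + x.x21 * y.x12 + x.x22 * y.x22 + x.x23 * y.x32) % p,
    (x.x20 * y.x03 + x.x21 * y.x13 + x.x22 * y.x23 + x.x23 * y.x33) % p,
    (x.x30 * y.x00 + x.x31 * y.x10 + x.x32 * y.x20 + x.x33 * y.x30) % p,
    (x.x30 * y.x01 + x.x31 * y.x11 + x.x32 * y.x21 + x.x33 * y.x31) % p,
    (x.x30 * y.x02 + x.x31 * y.x12 + x.x32 * y.x22 + x.x33 * y.x32) % p,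
    (x.x30 * y.x03 + x.x31 * y.x13 + x.x32 * y.x23 + x.x33 * y.x33) % p⟩

/-- sum -/
def addE (p : ℕ) (x y : E4) : E4 :=
  ⟨(x.x00 + y.x00) % p, (x.x01 + y.x01) % p, (x.x02 + y.x02) % p, (x.x03 + y.x03) % p, (x.x10 + y.x10) % p, (x.x11 + y.x11) % p, (x.x12 + y.x12) % p, (x.x13 + y.x13) % p, (x.x20 + y.x20) % p, (x.x21 + y.x21) % p, (x.x22 + y.x22) % p, (x.x23 + y.x23) % p, (x.x30 + y.x30) % p, (x.x31 + y.x31) % p, (x.x32 + y.x32) % p, (x.x33 + y.x33) % p⟩

/-- identity -/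
def oneE : E4 := ⟨1, 0, 0, 0, 0, 1, 0, 0, 0, 0, 1, 0, 0, 0, 0, 1⟩
/-- zero -/
def zeroE : E4 := ⟨0, 0, 0, 0, 0, 0, 0, 0, 0, 0, 0, 0, 0, 0, 0, 0⟩
/-- minus the identity -/
def negE (p : ℕ) : E4 := ⟨p - 1, 0, 0, 0, 0, p - 1, 0, 0, 0, 0, p - 1, 0, 0, 0, 0, p - 1⟩

/-- powers -/
def powE (p : ℕ) (x : E4) : ℕ → E4
  | 0 => oneE
  | n + 1 => mulE p (powE p x n) x

theorem toMat_mul (p : ℕ) (x y : E4) : toMat p (mulE p x y) = toMat p x * toMat p y := by
  ext i j
  fin_cases i <;> fin_cases j <;>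
    simp [toMat, mulE, Matrix.mul_apply, Fin.sum_univ_four, ZMod.natCast_mod]

theorem toMat_add (p : ℕ) (x y : E4) : toMat p (addE p x y) = toMat p x + toMat p y := by
  ext i j
  fin_cases i <;> fin_cases j <;>
    simp [toMat, addE, ZMod.natCast_mod]

theorem toMat_one (p : ℕ) : toMat p oneE = 1 := by
  ext i j
  fin_cases i <;> fin_cases j <;> simp [toMat, oneE]

theorem toMat_zero (p : ℕ) : toMat p zeroE = 0 := by
  ext i j
  fin_cases i <;> fin_cases j <;> simp [toMat, zeroE]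

theorem toMat_neg (p : ℕ) [NeZero p] : toMat p (negE p) = -1 := by
  have hp : 1 ≤ p := NeZero.one_le
  have h1 : ((p - 1 : ℕ) : ZMod p) = -1 := by
    rw [Nat.cast_sub hp]
    simp
  ext i j
  fin_cases i <;> fin_cases j <;> simp [toMat, negE, h1]

theorem toMat_pow (p : ℕ) (x : E4) (n : ℕ) : toMat p (powE p x n) = toMat p x ^ n := by
  induction n with
  | zero => simp [powE, toMat_one]
  | succ n ih => rw [powE, toMat_mul, ih, pow_succ]

/-- the check to run on every element of the list -/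
def check (p : ℕ) (A B Ai Bi : E4) (L : List E4) (a b : ℕ) (js : List ℕ) (x : E4) : Bool :=
  decide (mulE p A x ∈ L) && decide (mulE p B x ∈ L) && decide (mulE p Ai x ∈ L) &&
    decide (mulE p Bi x ∈ L) && (decide (powE p x a = oneE) || decide (powE p x b = oneE)) &&
    (decide (x = oneE) || js.any (fun j => decide (powE p x j = negE p)) ||
      decide (addE p (addE p oneE x) (powE p x 2) = zeroE))

theorem frob_of_enc {p : ℕ} [Fact p.Prime] (hp2 : (2 : ZMod p) ≠ 0) (hp3 : (3 : ZMod p) ≠ 0)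
    (A B Ai Bi : E4) (L : List E4) (a b : ℕ) (js : List ℕ)
    (hA1 : mulE p A Ai = oneE) (hA2 : mulE p Ai A = oneE)
    (hB1 : mulE p B Bi = oneE) (hB2 : mulE p Bi B = oneE)
    (hone : oneE ∈ L) (hlen : L.length < 60)
    (hall : L.all (check p A B Ai Bi L a b js) = true)
    (ha : a ≠ 0) (hb : b ≠ 0)
    (hoa : powE p A a = oneE) (hob : powE p B b = oneE)
    (hoa' : ∀ r : ℕ, r.Prime → r ∣ a → toMat p (powE p A (a / r)) ≠ 1)
    (hob' : ∀ r : ℕ, r.Prime → r ∣ b → toMat p (powE p B (b / r)) ≠ 1) :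
    ∃ (H : Type) (_ : Group H) (_ : Fintype H), Group.IsSolvable H ∧
      Set.range (orderOf : H → ℕ) = {d | d ∣ a ∨ d ∣ b ∨ d ∣ p} := by
  have hp0 : NeZero p := ⟨(Fact.out : p.Prime).ne_zero⟩
  let uA : GL (Fin 4) (ZMod p) := ⟨toMat p A, toMat p Ai,
    by rw [← toMat_mul, hA1, toMat_one], by rw [← toMat_mul, hA2, toMat_one]⟩
  let uB : GL (Fin 4) (ZMod p) := ⟨toMat p B, toMat p Bi,
    by rw [← toMat_mul, hB1, toMat_one], by rw [← toMat_mul, hB2, toMat_one]⟩
  have hchk : ∀ x ∈ L, check p A B Ai Bi L a b js x = true := List.all_eq_true.mp hall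
  have hmap : ∀ x, x ∈ L → toMat p x ∈ L.map (toMat p) := fun x hx => List.mem_map_of_mem hx
  have horder : ∀ (u : GL (Fin 4) (ZMod p)) (n : ℕ), 0 < n → (u.1 ^ n = 1) →
      (∀ r : ℕ, r.Prime → r ∣ n → u.1 ^ (n / r) ≠ 1) → orderOf u = n := by
    intro u n hn h1 h2
    apply orderOf_eq_of_pow_and_pow_div_prime hn
    · exact Units.ext (by simpa using h1)
    · intro r hr hrn h
      exact h2 r hr hrn (by simpa using congrArg Units.val h)
  refine FrobSpec2.exists_frob hp2 hp3 uA uB (L.map (toMat p)) a b ?_ ?_ ?_ ?_ ?_ ha hb ?_ ?_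
  · rw [← toMat_one p]
    exact hmap _ hone
  · intro x hx
    obtain ⟨y, hy, rfl⟩ := List.mem_map.mp hx
    have := hchk y hy
    simp only [check, Bool.and_eq_true, decide_eq_true_eq] at this
    obtain ⟨⟨⟨⟨⟨h1, h2⟩, h3⟩, h4⟩, _⟩, _⟩ := this
    refine ⟨?_, ?_, ?_, ?_⟩
    · have := hmap _ h1
      rwa [toMat_mul] at this
    · have := hmap _ h2
      rwa [toMat_mul] at this
    · have := hmap _ h3
      rwa [toMat_mul] at this
    · have := hmap _ h4
      rwa [toMat_mul] at this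
  · simpa using hlen
  · apply horder uA a (Nat.pos_of_ne_zero ha)
    · change toMat p A ^ a = 1
      rw [← toMat_pow, hoa, toMat_one]
    · intro r hr hra
      change toMat p A ^ (a / r) ≠ 1
      rw [← toMat_pow]
      exact hoa' r hr hra
  · apply horder uB b (Nat.pos_of_ne_zero hb)
    · change toMat p B ^ b = 1
      rw [← toMat_pow, hob, toMat_one]
    · intro r hr hrb
      change toMat p B ^ (b / r) ≠ 1
      rw [← toMat_pow]
      exact hob' r hr hrb
  · intro x hx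
    obtain ⟨y, hy, rfl⟩ := List.mem_map.mp hx
    have := hchk y hy
    simp only [check, Bool.and_eq_true, Bool.or_eq_true, decide_eq_true_eq] at this
    rcases this.1.2 with h | h
    · left; rw [← toMat_pow, h, toMat_one]
    · right; rw [← toMat_pow, h, toMat_one]
  · intro x hx
    obtain ⟨y, hy, rfl⟩ := List.mem_map.mp hx
    have := hchk y hy
    simp only [check, Bool.and_eq_true, Bool.or_eq_true, decide_eq_true_eq, List.any_eq_true] at this
    rcases this.2 with (h | ⟨j, _, h⟩) | h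
    · left; rw [h, toMat_one]
    · right; left
      refine ⟨j, ?_⟩
      rw [← toMat_pow, h, toMat_neg]
    · right; right
      have := congrArg (toMat p) h
      rw [toMat_add, toMat_add, toMat_one, toMat_pow, toMat_zero] at this
      exact this

end Cfsg.Agent.Lib.PSL2.EncMat4
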