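import Mathlib
import Cfsg.Agent.Lib.PSL2.EncMat4

/-! The group `C₃ ⋊ C₈`, fixed point free on `F₇⁴`: the list of its 24 matrices. -/

set_option autoImplicit false

namespace Cfsg.Agent.Lib.PSL2.SpecC24Data

open Cfsg.Agent.Lib.PSL2.EncMat4

/-- first generator -/
def A : E4 := ⟨0, 0, 0, 6, 0, 0, 1, 0, 1, 0, 0, 0, 0, 1, 0, 0⟩
/-- second generator -/
def B : E4 := ⟨0, 5, 0, 0, 2, 0, 0, 0, 0, 0, 0, 3, 0, 0, 4, 0⟩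
/-- inverse of the first generator -/
def Ai : E4 := ⟨0, 0, 1, 0, 0, 0, 0, 1, 0, 1, 0, 0, 6, 0, 0, 0⟩
/-- inverse of the second generator -/
def Bi : E4 := ⟨0, 4, 0, 0, 3, 0, 0, 0, 0, 0, 0, 2, 0, 0, 5, 0⟩
/-- the elements -/
def L : List E4 := [
  ⟨0, 0, 0, 1, 0, 0, 6, 0, 6, 0, 0, 0, 0, 6, 0, 0⟩,
  ⟨0, 0, 0, 2, 0, 0, 5, 0, 3, 0, 0, 0, 0, 3, 0, 0⟩,
  ⟨0, 0, 0, 3, 0, 0, 4, 0, 2, 0, 0, 0, 0, 2, 0, 0⟩,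
  ⟨0, 0, 0, 4, 0, 0, 3, 0, 5, 0, 0, 0, 0, 5, 0, 0⟩,
  ⟨0, 0, 0, 5, 0, 0, 2, 0, 4, 0, 0, 0, 0, 4, 0, 0⟩,
  ⟨0, 0, 0, 6, 0, 0, 1, 0, 1, 0, 0, 0, 0, 1, 0, 0⟩,
  ⟨0, 0, 1, 0, 0, 0, 0, 1, 0, 1, 0, 0, 6, 0, 0, 0⟩,
  ⟨0, 0, 2, 0, 0, 0, 0, 2, 0, 4, 0, 0, 3, 0, 0, 0⟩,
  ⟨0, 0, 3, 0, 0, 0, 0, 3, 0, 5, 0, 0, 2, 0, 0, 0⟩,
  ⟨0, 0, 4, 0, 0, 0, 0, 4, 0, 2, 0, 0, 5, 0, 0, 0⟩,
  ⟨0, 0, 5, 0, 0, 0, 0, 5, 0, 3, 0, 0, 4, 0, 0, 0⟩,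
  ⟨0, 0, 6, 0, 0, 0, 0, 6, 0, 6, 0, 0, 1, 0, 0, 0⟩,
  ⟨0, 1, 0, 0, 6, 0, 0, 0, 0, 0, 0, 1, 0, 0, 6, 0⟩,
  ⟨0, 2, 0, 0, 5, 0, 0, 0, 0, 0, 0, 4, 0, 0, 3, 0⟩,
  ⟨0, 3, 0, 0, 4, 0, 0, 0, 0, 0, 0, 5, 0, 0, 2, 0⟩,
  ⟨0, 4, 0, 0, 3, 0, 0, 0, 0, 0, 0, 2, 0, 0, 5, 0⟩,
  ⟨0, 5, 0, 0, 2, 0, 0, 0, 0, 0, 0, 3, 0, 0, 4, 0⟩,
  ⟨0, 6, 0, 0, 1, 0, 0, 0, 0, 0, 0, 6, 0, 0, 1, 0⟩,
  ⟨1, 0, 0, 0, 0, 1, 0, 0, 0, 0, 1, 0, 0, 0, 0, 1⟩,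
  ⟨2, 0, 0, 0, 0, 2, 0, 0, 0, 0, 4, 0, 0, 0, 0, 4⟩,
  ⟨3, 0, 0, 0, 0, 3, 0, 0, 0, 0, 5, 0, 0, 0, 0, 5⟩,
  ⟨4, 0, 0, 0, 0, 4, 0, 0, 0, 0, 2, 0, 0, 0, 0, 2⟩,
  ⟨5, 0, 0, 0, 0, 5, 0, 0, 0, 0, 3, 0, 0, 0, 0, 3⟩,
  ⟨6, 0, 0, 0, 0, 6, 0, 0, 0, 0, 6, 0, 0, 0, 0, 6⟩]

theorem all_check : L.all (check 7 A B Ai Bi L 8 12 [1, 2, 3, 4, 6]) = true := by decide +kernel

instance factP : Fact (Nat.Prime 7) := ⟨by norm_num⟩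

theorem exists_group : ∃ (H : Type) (_ : Group H) (_ : Fintype H), Group.IsSolvable H ∧
    Set.range (orderOf : H → ℕ) = {d | d ∣ 8 ∨ d ∣ 12 ∨ d ∣ 7} := by
  refine frob_of_enc (p := 7) (by decide +kernel) (by decide +kernel) A B Ai Bi L 8 12 [1, 2, 3, 4, 6]
    (by decide +kernel) (by decide +kernel) (by decide +kernel) (by decide +kernel)
    (by decide +kernel) (by decide +kernel) all_check (by norm_num) (by norm_num)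
    (by decide +kernel) (by decide +kernel) ?_ ?_
  · intro r hr hra
    have h2 : r = 2 := by
      have : r ∣ 2 ^ 3 := by simpa using hra
      exact (Nat.prime_dvd_prime_iff_eq hr Nat.prime_two).mp (hr.dvd_of_dvd_pow this)
    subst h2
    decide +kernel
  · intro r hr hrb
    have h2 : r = 2 ∨ r = 3 := by
      have : r ∣ 2 ^ 2 * 3 := by simpa using hrb
      rcases (Nat.Prime.dvd_mul hr).mp this with h | h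
      · left; exact (Nat.prime_dvd_prime_iff_eq hr Nat.prime_two).mp (hr.dvd_of_dvd_pow h)
      · right; exact (Nat.prime_dvd_prime_iff_eq hr Nat.prime_three).mp h
    rcases h2 with rfl | rfl <;> decide +kernel

end Cfsg.Agent.Lib.PSL2.SpecC24Data
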